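import Cfsg.Agent.Comp.MatG
import Cfsg.Agent.Comp.He.SpD
import Cfsg.Agent.Comp.He.Nets
import Cfsg.Agent.Comp.He.Rels

set_option autoImplicit false
set_option maxRecDepth 1000000
set_option maxHeartbeats 0
set_option Elab.async false

namespace CF.Comp.He

theorem linS_a : linAll (tabQ 2 1 1) 85 4 SV SA SL SCs 2 = true := by decide +kernel
theorem linS : LinOK (tabQ 2 1 1) 85 4 2 SV SA SL :=
  ⟨⟨Sσ, by decide +kernel⟩, by decide +kernel, by decide +kernel, rfl,
    SCs, by decide +kernel, rfl, linAll_iff.1 linS_a⟩
theorem chS : ChainGe S0 S1 136 8 2 SW SC 979200 :=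
  ⟨rfl, by decide, by decide, slp_of_slpOK (by decide +kernel), by decide +kernel, by decide +kernel,
    by decide +kernel⟩
theorem chU : ChainGe U0 U1 136 8 7 UW UC 1958400 :=
  ⟨rfl, by decide, by decide, slp_of_slpOK (by decide +kernel), by decide +kernel, by decide +kernel,
    by decide +kernel⟩
theorem spS : allFrom (spAt (tabQ 2 1 1) 2 1 SA) 0 2 = true := by decide +kernel
theorem subS : subOK N S0 Sν SWs 136 8 = true := by decide +kernel
theorem subU : subOK N U0 Sν HU 136 8 = true := by decide +kernel
theorem srtS : sorted STs 136 = true := by decide +kernel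
theorem incS : incOK SL S0 STs 85 136 = true := by decide +kernel

end CF.Comp.He
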