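import Cfsg.Agent.Comp.He.Main
import Cfsg.Agent.Comp.He.SpK
import Cfsg.Agent.Comp.Real

/-! The subgroup `S4(4):2` of He. -/

set_option autoImplicit false
set_option maxRecDepth 100000

namespace CF.Comp.He

open MulAction

theorem card_Sp (K : Type*) [Field K] [Fintype K] (hK : Fintype.card K = 4) :
    Nat.card (Matrix.symplecticGroup (Fin 2) K) = 979200 := by
  rw [CF.Geom.card_symplecticGroup, Nat.card_eq_fintype_card, hK]; rfl

theorem S_le : clo f SWs ≤ clo f HU := clo_le_of_wordIn (by decide +kernel)

theorem equivSp (K : Type*) [Field K] [Fintype K] (hK : Fintype.card K = 4) :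
    Nonempty (clo f SWs ≃* Matrix.symplecticGroup (Fin 2) K) := by
  obtain ⟨el, hT⟩ := exists_ok_four hK
  have hν : wfAll [Sν] 2058 = true := by decide +kernel
  have h := chS.equiv_of_faithful (reps.sub_of_OK hν (by decide) (by decide) subS)
    (fun _ h => evs_eq_one (ws := SWs) h)
    ((linS.hasReps_Sp (r := 2) hT (by decide +kernel) spS).inc (by decide) srtS incS) (card_Sp K hK).le
    (chU.faithful (reps.sub_of_OK hν (by decide) (by decide) subU) (fun _ h => evs_eq_one (ws := HU) h)
      (evs_mem fun _ => ev_mem_clo f) cardU.le) (evs_mem (clo_le.1 S_le))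
  rwa [show clo (evs f SWs) (gensW 2) = _ from clo_evs_gensW SWs] at h

theorem exists_Sp (K : Type*) [Field K] [Fintype K] (hK : Fintype.card K = 4) :
    ∃ N : Subgroup (clo f HU), N.index = 2 ∧ Nonempty (N ≃* Matrix.symplecticGroup (Fin 2) K) :=
  exists_index_of_le S_le (equivSp K hK) (by rw [cardU, card_Sp K hK])

end CF.Comp.He
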